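import Cfsg.Agent.Lib.Glauberman.QdFree
import Cfsg.Agent.Lib.Linear.GL2Unipotent

/-! In the affine group the centre of the Thompson subgroup does not control fusion. (helper6) -/

set_option autoImplicit false
set_option linter.style.haveILetI false

namespace CfsgLib.Glauberman

open Cfsg CfsgLib.Qd CfsgLib.ThompsonNPC
open scoped Matrix

variable (p : ℕ) [Fact p.Prime]

/-- A Sylow subgroup of the affine group whose Thompson centre lies on a line. -/
theorem exists_sylow_zMeet :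
    ∃ T : Sylow p ↥(aff (ZMod p)), zMeet 0 (T : Subgroup ↥(aff (ZMod p))) ≠ ⊥ ∧
      ∀ u ∈ zMeet 0 (T : Subgroup ↥(aff (ZMod p))), blk u = 1 ∧ vec u 0 = 0 := by
  haveI : Fintype (ZMod p) := inferInstance
  let V : Subgroup (Matrix.SpecialLinearGroup (Fin 2) (ZMod p)) := CfsgLib.Linear.GL2Unipotent.V
  let PV : Sylow p (Matrix.SpecialLinearGroup (Fin 2) (ZMod p)) := Sylow.ofCard V (by
    obtain ⟨P⟩ : Nonempty (Sylow p (Matrix.SpecialLinearGroup (Fin 2) (ZMod p))) := inferInstance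
    rw [CfsgLib.Linear.GL2Unipotent.card_V, Nat.card_eq_fintype_card, ← CfsgLib.Linear.GL2Unipotent.card_sylow_SL p P,
      Sylow.card_eq_multiplicity])
  let T : Sylow p ↥(aff (ZMod p)) := PV.comapOfKerIsPGroup blk isPGroup_ker
    (by rw [MonoidHom.range_eq_top.mpr blk_surjective]; exact le_top)
  set T' : Subgroup ↥(aff (ZMod p)) := (T : Subgroup ↥(aff (ZMod p))) with hT'
  have hmem : ∀ M, M ∈ T' ↔ blk M ∈ V := fun M => Iff.rfl
  have hcardV : Nat.card ↥V = p := by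
    rw [CfsgLib.Linear.GL2Unipotent.card_V, Nat.card_zmod]
  have hTle : Nat.card ↥T' ≤ p ^ 3 := by
    refine (Nat.card_le_card_of_injective (fun M : ↥T' => (vec M.1, (⟨blk M.1, M.2⟩ : ↥V))) fun A B h => ?_).trans ?_
    · refine Subtype.ext ((ext_iff' _ _).mpr ⟨congrArg Subtype.val (congrArg Prod.snd h), congrArg Prod.fst h⟩)
    · rw [Nat.card_prod, Nat.card_fun, Nat.card_zmod, Nat.card_fin, hcardV]
      exact le_of_eq (by ring)
  have hv1 : vec (1 : ↥(aff (ZMod p))) = 0 := by funext i; fin_cases i <;> simp [vec]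
  -- the two abelian subgroups of order at least `p ^ 2`
  let A₁ : Subgroup ↥(aff (ZMod p)) := (blk : ↥(aff (ZMod p)) →* _).ker
  let A₂ : Subgroup ↥(aff (ZMod p)) :=
    { carrier := {M | blk M ∈ V ∧ vec M 0 = 0}
      one_mem' := ⟨by rw [map_one]; exact V.one_mem, by simp [hv1]⟩
      mul_mem' := by
        rintro A B ⟨ha, ha0⟩ ⟨hb, hb0⟩
        refine ⟨by rw [map_mul]; exact V.mul_mem ha hb, ?_⟩
        obtain ⟨c, hc⟩ := ha
        rw [vec_mul, ← hc, CfsgLib.Linear.GL2Unipotent.v_coe]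
        simp [Matrix.mulVec, dotProduct, Fin.sum_univ_two, ha0, hb0]
      inv_mem' := by
        rintro A ⟨ha, ha0⟩
        refine ⟨by rw [map_inv]; exact V.inv_mem ha, ?_⟩
        obtain ⟨c, hc⟩ := V.inv_mem ha
        rw [← map_inv] at hc
        have h := congrFun (congrArg vec (inv_mul_cancel A)) 0
        rw [vec_mul, ← hc, CfsgLib.Linear.GL2Unipotent.v_coe, hv1] at h
        simpa [Matrix.mulVec, dotProduct, Fin.sum_univ_two, ha0] using h }
  have hA₁ : A₁ ≤ T' := fun M hM => (hmem M).mpr ((show blk M = 1 from hM) ▸ V.one_mem)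
  have hA₂ : A₂ ≤ T' := fun M hM => hM.1
  have hA₁c : ∀ x ∈ A₁, ∀ y ∈ A₁, x * y = y * x := fun x hx y hy => by
    rw [ext_iff', map_mul, map_mul, vec_mul, vec_mul, show blk x = 1 from hx, show blk y = 1 from hy]
    simp [add_comm]
  have hA₂c : ∀ x ∈ A₂, ∀ y ∈ A₂, x * y = y * x := fun x hx y hy => by
    obtain ⟨⟨a, ha⟩, ha0⟩ := hx
    obtain ⟨⟨b, hb⟩, hb0⟩ := hy
    rw [ext_iff', map_mul, map_mul, vec_mul, vec_mul, ← ha, ← hb]
    refine ⟨Subtype.ext (by simp [add_comm]), ?_⟩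
    funext i
    fin_cases i <;> simp [Matrix.mulVec, dotProduct, Fin.sum_univ_two, ha0, hb0, add_comm]
  have hc₁ : p ^ 2 ≤ Nat.card ↥A₁ := by
    refine le_trans ?_ (Nat.card_le_card_of_injective
      (fun w : Fin 2 → ZMod p => (⟨trl w, blk_trl w⟩ : ↥A₁)) fun a b h => ?_)
    · rw [Nat.card_fun, Nat.card_zmod, Nat.card_fin]
    · simpa using congrArg (fun M : ↥A₁ => vec M.1) h
  have hc₂ : p ^ 2 ≤ Nat.card ↥A₂ := by
    refine le_trans ?_ (Nat.card_le_card_of_injective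
      (fun q : ZMod p × ZMod p => (⟨trl ![0, q.2] * lift (CfsgLib.Linear.GL2Unipotent.v q.1),
        ⟨⟨q.1, by simp⟩, by simp [vec_mul]⟩⟩ : ↥A₂)) fun a b h => ?_)
    · rw [Nat.card_prod, Nat.card_zmod, sq]
    · have h1 := congrArg (fun M : ↥A₂ => blk M.1) h
      have h2 := congrFun (congrArg (fun M : ↥A₂ => vec M.1) h) 1
      simp [vec_mul] at h1 h2
      exact Prod.ext (CfsgLib.Linear.GL2Unipotent.v_injective h1) h2
  have hbd : ∀ B ≤ T', AbExp 0 B → Nat.card ↥B ≤ p ^ 2 := by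
    intro B hB hBab
    by_contra hlt
    obtain ⟨k, hk⟩ := (IsPGroup.iff_card (p := p)).mp (T.2.to_le hB)
    rw [hk, Nat.pow_le_pow_iff_right (Fact.out : p.Prime).one_lt] at hlt
    have h3 : p ^ 3 ≤ Nat.card ↥B := hk ▸ Nat.pow_le_pow_right (Fact.out : p.Prime).pos (by omega)
    have hBT : B = T' := Subgroup.eq_of_le_of_card_ge hB (hTle.trans h3)
    have h := hBab.1 (trl ![1, 0]) (hBT ▸ hA₁ (blk_trl _)) (lift (CfsgLib.Linear.GL2Unipotent.v 1))
      (hBT ▸ hA₂ (show lift (CfsgLib.Linear.GL2Unipotent.v 1) ∈ A₂ from ⟨⟨1, by simp⟩, by simp⟩))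
    have h1 := congrFun (congrArg vec h) 1
    simp [vec_mul] at h1
  have hm₁ : A₁ ∈ maxAb 0 T' := ⟨hA₁, ⟨hA₁c, fun x _ => pow_zero x⟩, fun B hB hBab => (hbd B hB hBab).trans hc₁⟩
  have hm₂ : A₂ ∈ maxAb 0 T' := ⟨hA₂, ⟨hA₂c, fun x _ => pow_zero x⟩, fun B hB hBab => (hbd B hB hBab).trans hc₂⟩
  refine ⟨T, iInf_maxAb_ne_bot T.2 fun h => ?_, fun u hu =>
    ⟨(iInf₂_le A₁ hm₁ : zMeet 0 T' ≤ A₁) hu, ((iInf₂_le A₂ hm₂ : zMeet 0 T' ≤ A₂) hu).2⟩⟩
  have h2 : trl ![1, 0] ∈ (⊥ : Subgroup ↥(aff (ZMod p))) := h ▸ (hT' ▸ hA₁ (show trl ![1, 0] ∈ A₁ from blk_trl _))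
  have h3 := congrFun (congrArg vec (Subgroup.mem_bot.mp h2)) 0
  simp [hv1] at h3

/-- In an isomorphic copy of `Qd(p)` some Thompson centre does not control strong fusion. -/
theorem exists_not_controls {Q : Type*} [Group Q] [Finite Q] (e : Q ≃* ↥(Cfsg.qd p)) :
    ∃ T : Sylow p Q, ¬ ControlsStrongFusion p (centerThompsonAOf (T : Subgroup Q)) := by
  let f : ↥(aff (ZMod p)) ≃* Q := (e.trans (MulEquiv.subgroupCongr (qd_eq p))).symm
  obtain ⟨T, hne, hline⟩ := exists_sylow_zMeet p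
  refine ⟨T.mapSurjective (f := f.toMonoidHom) f.surjective, ?_⟩
  rintro ⟨S, hUS, hctrl⟩
  have hU : centerThompsonAOf ((T.mapSurjective (f := f.toMonoidHom) f.surjective : Sylow p Q) : Subgroup Q) =
      (zMeet 0 (T : Subgroup ↥(aff (ZMod p)))).map f.toMonoidHom := by
    rw [centerThompsonAOf_eq, zMeet_map 0 (injOn_of_injective f.injective _)]
    rfl
  rw [hU] at hUS hctrl
  obtain ⟨u, hu, hu1⟩ : ∃ u ∈ zMeet 0 (T : Subgroup ↥(aff (ZMod p))), u ≠ 1 := by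
    by_contra h
    push_neg at h
    exact hne ((Subgroup.eq_bot_iff_forall _).mpr h)
  obtain ⟨hub, hu0⟩ := hline u hu
  haveI : Fintype (ZMod p) := inferInstance
  have hKS : ((blk : ↥(aff (ZMod p)) →* _).ker).map f.toMonoidHom ≤ (S : Subgroup Q) :=
    (CfsgLib.Core.le_pCore (Subgroup.Normal.map inferInstance _ f.surjective) (isPGroup_ker.map _)).trans
      (CfsgLib.Core.pCore_le_sylow S)
  let w : Matrix.SpecialLinearGroup (Fin 2) (ZMod p) := ⟨!![0, 1; -1, 0], by simp [Matrix.det_fin_two]⟩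
  set g : Q := f (lift w)
  have hg : g * f u * g⁻¹ ∈ (S : Subgroup Q) := by
    refine hKS ⟨lift w * u * (lift w)⁻¹, ?_, by simp [g]⟩
    show blk _ = 1
    rw [map_mul, map_mul, hub, mul_one, map_inv, mul_inv_cancel]
  obtain ⟨x, hx, hxe⟩ := (hctrl {f u} (Set.singleton_subset_iff.mpr (hUS ⟨u, hu, rfl⟩))).2 g
    (by rintro _ ⟨_, rfl, rfl⟩; exact hg)
  obtain ⟨v, hv, hve⟩ := (Subgroup.mem_normalizer_iff.mp hx (f u)).mp ⟨u, hu, rfl⟩
  have hvg : v = lift w * u * (lift w)⁻¹ := f.injective (by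
    rw [show f v = x * f u * x⁻¹ from hve, ← hxe _ rfl]; simp [g])
  have h := (hline v hv).2
  rw [hvg, vec_conj _ hub, blk_lift] at h
  refine hu1 ((ext_iff' u 1).mpr ⟨by rw [hub, map_one], ?_⟩)
  funext i
  fin_cases i
  · simpa [vec] using hu0
  · simpa [w, vec, hu0] using h

end CfsgLib.Glauberman
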